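import Mathlib
import Cfsg.Agent.H375.Out.Split

/-!
# The Dickson invariant of isometries with an invariant maximal singular subspace, characteristic two (helper382)

`even_fix` : `u ∈ O(Q)` leaves invariant `W = W^⊥` with `Q = 0` on `W`: the fixed space of `u` has even dimension.
-/

set_option autoImplicit false
set_option linter.unusedVariables false
set_option linter.unusedSectionVars false

namespace Cfsg.Agent.H382.Eight

open Module Cfsg.Agent.H375.Odd Cfsg.Agent.H375.Out Cfsg.Agent.H375

variable {F : Type*} [Field F] [CharP F 2] {V : Type*} [AddCommGroup V] [Module F V] [FiniteDimensional F V]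

/-- The orthogonal space. -/
def perp (β : V →ₗ[F] V →ₗ[F] F) (U : Submodule F V) : Submodule F V :=
  U.dualAnnihilator.comap (β : V →ₗ[F] Module.Dual F V)

theorem mem_perp {β : V →ₗ[F] V →ₗ[F] F} {U : Submodule F V} {v : V} : v ∈ perp β U ↔ ∀ w ∈ U, β v w = 0 := by
  rw [perp, Submodule.mem_comap, Submodule.mem_dualAnnihilator]

theorem finrank_perp {β : V →ₗ[F] V →ₗ[F] F} (h : Alt β) (U : Submodule F V) :
    finrank F U + finrank F (perp β U) = finrank F V := by
  have hns : CovTwo.NS β := ⟨h.symm, h.nd⟩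
  obtain ⟨e, he⟩ := hns.exists_dual
  have h1 : (perp β U).map (e : V →ₗ[F] Module.Dual F V) = U.dualAnnihilator := by
    ext f
    constructor
    · rintro ⟨v, hv, rfl⟩
      rw [Submodule.mem_dualAnnihilator]
      intro w hw
      show e v w = 0
      rw [he]
      exact mem_perp.1 hv w hw
    · intro hf
      refine ⟨e.symm f, mem_perp.2 fun w hw => ?_, e.apply_symm_apply f⟩
      rw [← he, e.apply_symm_apply]
      exact (Submodule.mem_dualAnnihilator f).1 hf w hw
  have h2 := Subspace.finrank_add_finrank_dualAnnihilator_eq U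
  rw [← h1] at h2
  have h3 := (Submodule.equivMapOfInjective (e : V →ₗ[F] Module.Dual F V) e.injective (perp β U)).finrank_eq
  rw [← h3] at h2
  exact h2

theorem finrank_map_add {f : V →ₗ[F] V} (U : Submodule F V) :
    finrank F (U.map f) + finrank F (U ⊓ LinearMap.ker f : Submodule F V) = finrank F U := by
  have h3 := LinearMap.finrank_range_add_finrank_ker (f.domRestrict U)
  have h4 : LinearMap.range (f.domRestrict U) = U.map f := LinearMap.range_domRestrict U f
  have h5 : finrank F (LinearMap.ker (f.domRestrict U)) = finrank F (U ⊓ LinearMap.ker f : Submodule F V) := by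
    have h6 : (LinearMap.ker (f.domRestrict U)).map U.subtype = U ⊓ LinearMap.ker f := by
      rw [LinearMap.ker_domRestrict, Submodule.map_comap_subtype]
    rw [← h6]
    exact (Submodule.equivMapOfInjective U.subtype Subtype.val_injective _).finrank_eq
  rw [h4, h5] at h3
  exact h3

theorem finrank_perp_self {β : V →ₗ[F] V →ₗ[F] F} (h : Alt β) {W : Submodule F V} (hW : perp β W = W) :
    finrank F W + finrank F W = finrank F V := by
  have h1 := finrank_perp h W
  rwa [hW] at h1

/-- **Parity.** -/
theorem even_fix {β : V →ₗ[F] V →ₗ[F] F} {Q : V → F} (hQ : QF Q β) (h : Alt β) {u : V ≃ₗ[F] V} (hu : u ∈ OQ Q)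
    {W : Submodule F V} (hW0 : ∀ w ∈ W, Q w = 0) (hW : perp β W = W) (huW : ∀ w ∈ W, u w ∈ W) :
    Even (finrank F (bV u)) := by
  classical
  have hui := OQ_le hQ hu
  set K := bV u with hK
  have hKker : LinearMap.ker (Nu u) = K := rfl
  have hKker' : LinearMap.ker (Nu u⁻¹) = K := by
    ext v
    rw [LinearMap.mem_ker, Nu_apply, sub_eq_zero, hK, mem_bV]
    constructor
    · intro h1
      conv_lhs => rw [← h1]
      show (u * u⁻¹) v = v
      rw [mul_inv_cancel]
      rfl
    · intro h1
      conv_lhs => rw [← h1]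
      show (u⁻¹ * u) v = v
      rw [inv_mul_cancel]
      rfl
  have hadj : ∀ v w, β v (Nu u w) = β (Nu u⁻¹ v) w := by
    intro v w
    have := Nu_adj hui 1 v w
    rwa [pow_one, pow_one] at this
  have hadj' : ∀ v w, β v (Nu u⁻¹ w) = β (Nu u v) w := by
    intro v w
    rw [h.symm, ← hadj, h.symm]
  set A : Submodule F V := W.comap (Nu u) with hA
  -- `dim A`
  have hA1 : A = perp β (W.map (Nu u⁻¹)) := by
    ext v
    rw [hA, Submodule.mem_comap, mem_perp]
    constructor
    · rintro hv _ ⟨w, hw, rfl⟩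
      rw [hadj']
      have : Nu u v ∈ perp β W := by rw [hW]; exact hv
      exact mem_perp.1 this w hw
    · intro hv
      rw [← hW, mem_perp]
      intro w hw
      rw [← hadj']
      exact hv _ ⟨w, hw, rfl⟩
  have hd1 := finrank_map_add (f := Nu u⁻¹) W
  rw [hKker'] at hd1
  have hd2 := finrank_perp h (W.map (Nu u⁻¹))
  rw [← hA1] at hd2
  have hd3 := finrank_perp_self h hW
  -- `R₁`
  set R := A.map (Nu u) with hR
  have hKA : K ≤ A := by
    intro v hv
    rw [hA, Submodule.mem_comap, Nu_apply, mem_bV.1 hv, sub_self]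
    exact W.zero_mem
  have hWA : W ≤ A := by
    intro v hv
    rw [hA, Submodule.mem_comap, Nu_apply]
    exact W.sub_mem (huW v hv) hv
  have hRW : R ≤ W := by
    rintro _ ⟨v, hv, rfl⟩
    exact hv
  have hd4 := finrank_map_add (f := Nu u) A
  rw [hKker, inf_eq_right.2 hKA, ← hR] at hd4
  -- the radical
  have hd5 := finrank_perp h R
  have hd6 := Submodule.finrank_sup_add_finrank_inf_eq K W
  rw [inf_comm K W] at hd6
  have hle : K ⊔ W ≤ perp β R := by
    apply sup_le
    · intro v hv
      rw [mem_perp]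
      rintro _ ⟨w, hw, rfl⟩
      have h1 : Nu u⁻¹ v = 0 := by
        rw [← LinearMap.mem_ker, hKker']
        exact hv
      rw [hadj, h1, map_zero, LinearMap.zero_apply]
    · intro v hv
      rw [mem_perp]
      intro w hw
      have : v ∈ perp β W := by rw [hW]; exact hv
      exact mem_perp.1 this w (hRW hw)
  have hRad : K ⊔ W = perp β R := Submodule.eq_of_le_of_finrank_le hle (by omega)
  set Rad := K ⊔ W with hRadd
  have hRadA : Rad ≤ A := sup_le hKA hWA
  -- a complement
  obtain ⟨C, hC⟩ := Submodule.exists_isCompl (Rad.comap A.subtype)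
  set C' : Submodule F V := C.map A.subtype with hC'
  have hC'A : C' ≤ A := Submodule.map_subtype_le _ _
  have hCR : ∀ v ∈ C', v ∈ Rad → v = 0 := by
    rintro _ ⟨⟨c, hc⟩, hcC, rfl⟩ hv
    have h1 : (⟨c, hc⟩ : A) ∈ Rad.comap A.subtype ⊓ C := ⟨hv, hcC⟩
    rw [hC.inf_eq_bot, Submodule.mem_bot] at h1
    exact congrArg Subtype.val h1
  have hsplit : ∀ v ∈ A, ∃ r ∈ Rad, ∃ c ∈ C', r + c = v := by
    intro v hv
    have h1 : (⟨v, hv⟩ : A) ∈ Rad.comap A.subtype ⊔ C := by rw [hC.sup_eq_top]; trivial
    obtain ⟨r, hr, c, hc, hrc⟩ := Submodule.mem_sup.1 h1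
    exact ⟨r, hr, c, ⟨c, hc, rfl⟩, congrArg Subtype.val hrc⟩
  have hdC : finrank F Rad + finrank F C' = finrank F A := by
    have h1 := Submodule.finrank_add_eq_of_isCompl hC
    have h2 : finrank F (Rad.comap A.subtype) = finrank F Rad := (Submodule.comapSubtypeEquivOfLe hRadA).finrank_eq
    have h3 : finrank F C' = finrank F C :=
      (Submodule.equivMapOfInjective A.subtype Subtype.val_injective C).finrank_eq.symm
    omega
  -- the form
  have halt : ∀ v ∈ A, β v (Nu u v) = 0 := by
    intro v hv
    have h1 := hQ.add v (Nu u v)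
    have h2 : v + Nu u v = u v := by rw [Nu_apply]; abel
    rw [h2, hu v, hW0 _ hv, add_zero] at h1
    have h3 : Q v + 0 = Q v + β v (Nu u v) := by rw [add_zero]; exact h1
    exact (add_left_cancel h3).symm
  have hsymm : ∀ v ∈ A, ∀ w ∈ A, β v (Nu u w) = β w (Nu u v) := by
    intro v hv w hw
    have h1 := halt (v + w) (A.add_mem hv hw)
    simp only [map_add, LinearMap.add_apply] at h1
    rw [halt v hv, halt w hw, zero_add, add_zero] at h1
    rw [← sub_eq_zero, CharTwo.sub_eq_add, add_comm]
    exact h1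
  have heven := CovTwo.even_of_alt (β := β.compl₂ (Nu u)) C' (fun w hw => halt w (hC'A hw)) (by
    intro v hv hv0
    apply hCR v hv
    rw [hRad, mem_perp]
    rintro _ ⟨w, hw, rfl⟩
    obtain ⟨r, hr, c, hc, rfl⟩ := hsplit w hw
    have h1 : β v (Nu u r) = 0 := by
      rw [hsymm v (hC'A hv) r (hRadA hr)]
      have h2 : r ∈ perp β R := by rw [← hRad]; exact hr
      exact mem_perp.1 h2 _ ⟨v, hC'A hv, rfl⟩
    rw [map_add, map_add, h1, zero_add]
    exact hv0 c hc)
  obtain ⟨k, hk⟩ := heven
  have : finrank F (W ⊓ K : Submodule F V) ≤ finrank F W := Submodule.finrank_mono inf_le_left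
  exact ⟨finrank F (W ⊓ K : Submodule F V) - k, by omega⟩

end Cfsg.Agent.H382.Eight
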