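import Mathlib
import Cfsg.Agent.H382.EightA
import Cfsg.Agent.H382.EightPar
import Cfsg.Agent.H375.Odd.Inst
import Cfsg.Agent.H375.Odd.Siegel

/-!
# The Sylow 2-subgroup of `Ω⁺₈(q)`, `q` even (helper382)
-/

set_option autoImplicit false
set_option linter.unusedVariables false
set_option linter.unusedSectionVars false

namespace Cfsg.Agent.H382.Eight

open Module Cfsg.Agent.H375.Odd Cfsg.Agent.H375.Out Cfsg.Agent.H375 QuadraticMap Cfsg.Agent.LieClassical.OmegaReindex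

/-- Basis vectors. -/
def bs (F : Type*) [Field F] (j : Fin 4 ⊕ Fin 4) : Fin 4 ⊕ Fin 4 → F := Pi.single j 1

/-- Weights. -/
def wt : Fin 4 ⊕ Fin 4 → ℕ := Sum.elim (fun i => i.1 + 1) (fun i => 7 - i.1)

theorem wt_pos : ∀ j, 1 ≤ wt j := by decide

theorem wt_le : ∀ j, wt j ≤ 7 := by decide

section field

variable {F : Type*} [Field F]

theorem bs_self (j : Fin 4 ⊕ Fin 4) : bs F j j = 1 := Pi.single_eq_same _ _

theorem bs_ne {i j : Fin 4 ⊕ Fin 4} (h : i ≠ j) : bs F j i = 0 := Pi.single_eq_of_ne h _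

/-- The flag. -/
def Fl (F : Type*) [Field F] (k : ℕ) : Submodule F (Fin 4 ⊕ Fin 4 → F) where
  carrier := {v | ∀ j, k < wt j → v j = 0}
  add_mem' := fun {v w} hv hw j hj => by
    show v j + w j = 0
    rw [hv j hj, hw j hj, add_zero]
  zero_mem' := fun j _ => rfl
  smul_mem' := fun c v hv j hj => by
    show c * v j = 0
    rw [hv j hj, mul_zero]

theorem mem_Fl {k : ℕ} {v : Fin 4 ⊕ Fin 4 → F} : v ∈ Fl F k ↔ ∀ j, k < wt j → v j = 0 := Iff.rfl

theorem Fl_mono {k l : ℕ} (h : k ≤ l) : Fl F k ≤ Fl F l := fun v hv j hj => hv j (by omega)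

theorem Fl_zero {v : Fin 4 ⊕ Fin 4 → F} (h : v ∈ Fl F 0) : v = 0 := by
  funext j
  exact h j (wt_pos j)

theorem Fl_top (v : Fin 4 ⊕ Fin 4 → F) : v ∈ Fl F 7 := fun j hj => absurd hj (not_lt.2 (wt_le j))

theorem bs_mem (j : Fin 4 ⊕ Fin 4) : bs F j ∈ Fl F (wt j) := by
  intro i hi
  apply bs_ne
  rintro rfl
  exact lt_irrefl _ hi

theorem expand (v : Fin 4 ⊕ Fin 4 → F) : v =
    v (.inr 0) • bs F (.inr 0) + v (.inr 1) • bs F (.inr 1) + v (.inr 2) • bs F (.inr 2) + v (.inr 3) • bs F (.inr 3) +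
    v (.inl 3) • bs F (.inl 3) + v (.inl 2) • bs F (.inl 2) + v (.inl 1) • bs F (.inl 1) + v (.inl 0) • bs F (.inl 0) := by
  funext j
  simp only [Pi.add_apply, Pi.smul_apply, smul_eq_mul, bs]
  rcases j with j | j <;> fin_cases j <;> simp

theorem fl1 {v : Fin 4 ⊕ Fin 4 → F} (h : v ∈ Fl F 1) : v = v (.inl 0) • bs F (.inl 0) := by
  conv_lhs => rw [expand v]
  rw [h (.inr 0) (by decide), h (.inr 1) (by decide), h (.inr 2) (by decide), h (.inr 3) (by decide),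
    h (.inl 3) (by decide), h (.inl 2) (by decide), h (.inl 1) (by decide)]
  module

theorem fl2 {v : Fin 4 ⊕ Fin 4 → F} (h : v ∈ Fl F 2) :
    v = v (.inl 1) • bs F (.inl 1) + v (.inl 0) • bs F (.inl 0) := by
  conv_lhs => rw [expand v]
  rw [h (.inr 0) (by decide), h (.inr 1) (by decide), h (.inr 2) (by decide), h (.inr 3) (by decide),
    h (.inl 3) (by decide), h (.inl 2) (by decide)]
  module

theorem fl3 {v : Fin 4 ⊕ Fin 4 → F} (h : v ∈ Fl F 3) :
    v = v (.inl 2) • bs F (.inl 2) + v (.inl 1) • bs F (.inl 1) + v (.inl 0) • bs F (.inl 0) := by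
  conv_lhs => rw [expand v]
  rw [h (.inr 0) (by decide), h (.inr 1) (by decide), h (.inr 2) (by decide), h (.inr 3) (by decide),
    h (.inl 3) (by decide)]
  module

theorem fl4 {v : Fin 4 ⊕ Fin 4 → F} (h : v ∈ Fl F 4) :
    v = v (.inr 3) • bs F (.inr 3) + v (.inl 3) • bs F (.inl 3) + v (.inl 2) • bs F (.inl 2) +
      v (.inl 1) • bs F (.inl 1) + v (.inl 0) • bs F (.inl 0) := by
  conv_lhs => rw [expand v]
  rw [h (.inr 0) (by decide), h (.inr 1) (by decide), h (.inr 2) (by decide)]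
  module

theorem fl5 {v : Fin 4 ⊕ Fin 4 → F} (h : v ∈ Fl F 5) :
    v = v (.inr 2) • bs F (.inr 2) + v (.inr 3) • bs F (.inr 3) + v (.inl 3) • bs F (.inl 3) +
      v (.inl 2) • bs F (.inl 2) + v (.inl 1) • bs F (.inl 1) + v (.inl 0) • bs F (.inl 0) := by
  conv_lhs => rw [expand v]
  rw [h (.inr 0) (by decide), h (.inr 1) (by decide)]
  module

/-- The form. -/
theorem be (x y : Fin 4 ⊕ Fin 4 → F) : polarBilin (quadPlus 4 F) x y =
    (x (.inl 0) * y (.inr 0) + y (.inl 0) * x (.inr 0)) + (x (.inl 1) * y (.inr 1) + y (.inl 1) * x (.inr 1)) +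
    (x (.inl 2) * y (.inr 2) + y (.inl 2) * x (.inr 2)) + (x (.inl 3) * y (.inr 3) + y (.inl 3) * x (.inr 3)) := by
  show polar (⇑(quadPlus 4 F)) x y = _
  rw [polar_quadPlus, Fin.sum_univ_four]

theorem qe (x : Fin 4 ⊕ Fin 4 → F) : quadPlus 4 F x =
    x (.inl 0) * x (.inr 0) + x (.inl 1) * x (.inr 1) + x (.inl 2) * x (.inr 2) + x (.inl 3) * x (.inr 3) := by
  rw [coe_quadPlus, Cfsg.quadFormPlus, Fin.sum_univ_four]

end field

section group

variable {F : Type*} [Field F] [Fintype F] [CharP F 2]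

instance : Finite ((Fin 4 ⊕ Fin 4 → F) ≃ₗ[F] (Fin 4 ⊕ Fin 4 → F)) :=
  Finite.of_injective (fun g : (Fin 4 ⊕ Fin 4 → F) ≃ₗ[F] (Fin 4 ⊕ Fin 4 → F) => (g : (Fin 4 ⊕ Fin 4 → F) → (Fin 4 ⊕ Fin 4 → F)))
    DFunLike.coe_injective

/-- The condition. -/
def Low (u : (Fin 4 ⊕ Fin 4 → F) ≃ₗ[F] (Fin 4 ⊕ Fin 4 → F)) : Prop :=
  u ∈ OQ (⇑(quadPlus 4 F)) ∧ ∀ k, ∀ v ∈ Fl F (k + 1), Nu u v ∈ Fl F k

theorem Low.one : Low (1 : (Fin 4 ⊕ Fin 4 → F) ≃ₗ[F] (Fin 4 ⊕ Fin 4 → F)) :=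
  ⟨one_mem _, fun k v _ => by rw [Nu_one]; exact Submodule.zero_mem _⟩

theorem Nu_mul_apply (u w : (Fin 4 ⊕ Fin 4 → F) ≃ₗ[F] (Fin 4 ⊕ Fin 4 → F)) (v : Fin 4 ⊕ Fin 4 → F) :
    Nu (u * w) v = Nu u v + Nu w v + Nu u (Nu w v) := by
  simp only [Nu_apply, map_sub]
  show u (w v) - v = _
  abel

theorem Low.mul {u w : (Fin 4 ⊕ Fin 4 → F) ≃ₗ[F] (Fin 4 ⊕ Fin 4 → F)} (hu : Low u) (hw : Low w) : Low (u * w) := by
  refine ⟨mul_mem hu.1 hw.1, fun k v hv => ?_⟩
  rw [Nu_mul_apply]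
  refine Submodule.add_mem _ (Submodule.add_mem _ (hu.2 k v hv) (hw.2 k v hv)) ?_
  exact hu.2 k _ (Fl_mono (Nat.le_succ k) (hw.2 k v hv))

theorem Low.inv {u : (Fin 4 ⊕ Fin 4 → F) ≃ₗ[F] (Fin 4 ⊕ Fin 4 → F)} (hu : Low u) : Low u⁻¹ :=
  inv_mem_of_pow (p := Low) Low.one (fun _ _ => Low.mul) hu

/-- The group `P`. -/
def Ph (F : Type*) [Field F] [Fintype F] [CharP F 2] : Subgroup ((Fin 4 ⊕ Fin 4 → F) ≃ₗ[F] (Fin 4 ⊕ Fin 4 → F)) where
  carrier := {u | Low u}
  mul_mem' := Low.mul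
  one_mem' := Low.one
  inv_mem' := Low.inv

theorem mem_Ph {u : (Fin 4 ⊕ Fin 4 → F) ≃ₗ[F] (Fin 4 ⊕ Fin 4 → F)} : u ∈ Ph F ↔ Low u := Iff.rfl

/-- `u ^ 8 = 1`. -/
theorem Low.pow_eight {u : (Fin 4 ⊕ Fin 4 → F) ≃ₗ[F] (Fin 4 ⊕ Fin 4 → F)} (hu : Low u) : u ^ 2 ^ 3 = 1 := by
  have h1 : ∀ k, k ≤ 7 → ∀ v, (Nu u ^ k) v ∈ Fl F (7 - k) := by
    intro k
    induction k with
    | zero => intro _ v; exact Fl_top v
    | succ k ih =>
      intro hk v
      rw [pow_succ']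
      show Nu u ((Nu u ^ k) v) ∈ _
      apply hu.2
      have : 7 - (k + 1) + 1 = 7 - k := by omega
      rw [this]
      exact ih (by omega) v
  have h2 : Nu u ^ 2 ^ 3 = 0 := by
    apply LinearMap.ext
    intro v
    have h3 : (Nu u ^ 7) v = 0 := Fl_zero (h1 7 le_rfl v)
    rw [show 2 ^ 3 = 1 + 7 by norm_num, pow_add]
    show (Nu u ^ 1) ((Nu u ^ 7) v) = 0
    rw [h3, map_zero]
  rw [Nu_pow] at h2
  apply LinearEquiv.ext
  intro v
  exact sub_eq_zero.1 (LinearMap.congr_fun h2 v)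

/-- The matrix coefficients. -/
def cf (i j : Fin 4 ⊕ Fin 4) (u : (Fin 4 ⊕ Fin 4 → F) ≃ₗ[F] (Fin 4 ⊕ Fin 4 → F)) : F := Nu u (bs F j) i

theorem Low.nu_bs {u : (Fin 4 ⊕ Fin 4 → F) ≃ₗ[F] (Fin 4 ⊕ Fin 4 → F)} (hu : Low u) (j : Fin 4 ⊕ Fin 4) :
    Nu u (bs F j) ∈ Fl F (wt j - 1) := by
  apply hu.2
  rw [Nat.sub_add_cancel (wt_pos j)]
  exact bs_mem j

/-- Additivity. -/
theorem cf_mul {u w : (Fin 4 ⊕ Fin 4 → F) ≃ₗ[F] (Fin 4 ⊕ Fin 4 → F)} (hu : Low u) (hw : Low w) {i j : Fin 4 ⊕ Fin 4}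
    (h : wt i + 1 = wt j) : cf i j (u * w) = cf i j u + cf i j w := by
  have h1 : Nu u (Nu w (bs F j)) i = 0 := by
    have h2 : Nu w (bs F j) ∈ Fl F (wt i - 1 + 1) := by
      have := hw.nu_bs j
      have h3 : wt j - 1 = wt i - 1 + 1 := by have := wt_pos i; omega
      rwa [h3] at this
    exact hu.2 _ _ h2 i (by have := wt_pos i; omega)
  rw [cf, Nu_mul_apply, Pi.add_apply, Pi.add_apply, h1, add_zero]
  rfl

theorem cf_one (i j : Fin 4 ⊕ Fin 4) : cf i j (1 : (Fin 4 ⊕ Fin 4 → F) ≃ₗ[F] (Fin 4 ⊕ Fin 4 → F)) = 0 := by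
  rw [cf, Nu_one]
  rfl

theorem cf_inv {u : (Fin 4 ⊕ Fin 4 → F) ≃ₗ[F] (Fin 4 ⊕ Fin 4 → F)} (hu : Low u) {i j : Fin 4 ⊕ Fin 4}
    (h : wt i + 1 = wt j) : cf i j u⁻¹ = cf i j u := by
  have h1 := cf_mul hu hu.inv h
  rw [mul_inv_cancel, cf_one] at h1
  have h2 := neg_eq_of_add_eq_zero_right h1.symm
  rw [← h2, CharTwo.neg_eq]

/-- **The fourth power.** -/
theorem Low.four {u : (Fin 4 ⊕ Fin 4 → F) ≃ₗ[F] (Fin 4 ⊕ Fin 4 → F)} (hu : Low u) :
    (∀ j, j ≠ .inr 0 → j ≠ .inr 1 → (Nu u ^ 4) (bs F j) = 0) ∧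
    (Nu u ^ 4) (bs F (.inr 1)) = (cf (.inl 0) (.inl 1) u * cf (.inl 1) (.inl 2) u * cf (.inl 1) (.inl 2) u *
      cf (.inl 2) (.inl 3) u * cf (.inl 2) (.inr 3) u) • bs F (.inl 0) := by
  have h2 : (2 : F) = 0 := CharTwo.two_eq_zero
  have hui : u ∈ Isom (polarBilin (quadPlus 4 F)) := OQ_le (qf_of _) hu.1
  set N := Nu u with hN
  have hNv : ∀ v, u v = v + N v := fun v => by rw [hN, Nu_apply]; abel
  -- the images
  have hE0 : N (bs F (.inl 0)) = 0 := Fl_zero (hu.nu_bs (.inl 0))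
  have hE1 := fl1 (hu.nu_bs (.inl 1))
  have hE2 := fl2 (hu.nu_bs (.inl 2))
  have hE3 := fl3 (hu.nu_bs (.inl 3))
  have hF3 := fl3 (hu.nu_bs (.inr 3))
  have hF2 := fl4 (hu.nu_bs (.inr 2))
  have hF1 := fl5 (hu.nu_bs (.inr 1))
  have z := fun j => mem_Fl.1 (hu.nu_bs j)
  rw [← hN] at hE1 hE2 hE3 hF3 hF2 hF1
  set a := N (bs F (.inl 1)) (.inl 0) with ha
  set b := N (bs F (.inl 2)) (.inl 1) with hb
  set r1 := N (bs F (.inl 2)) (.inl 0) with hr1
  set c := N (bs F (.inl 3)) (.inl 2) with hc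
  set r2 := N (bs F (.inl 3)) (.inl 1) with hr2
  set r3 := N (bs F (.inl 3)) (.inl 0) with hr3
  set d := N (bs F (.inr 3)) (.inl 2) with hd
  set r4 := N (bs F (.inr 3)) (.inl 1) with hr4
  set r5 := N (bs F (.inr 3)) (.inl 0) with hr5
  set c' := N (bs F (.inr 2)) (.inr 3) with hc'
  set d' := N (bs F (.inr 2)) (.inl 3) with hd'
  set r6 := N (bs F (.inr 2)) (.inl 2) with hr6
  set r7 := N (bs F (.inr 2)) (.inl 1) with hr7
  set r8 := N (bs F (.inr 2)) (.inl 0) with hr8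
  set b' := N (bs F (.inr 1)) (.inr 2) with hb'
  set z' := N (bs F (.inr 1)) (.inr 3) with hz'
  set z'' := N (bs F (.inr 1)) (.inl 3) with hz''
  set s3 := N (bs F (.inr 1)) (.inl 2) with hs3
  set s2 := N (bs F (.inr 1)) (.inl 1) with hs2
  set s1 := N (bs F (.inr 1)) (.inl 0) with hs1
  have bsv : ∀ i j, bs F j i = if i = j then 1 else 0 := fun i j => by rw [bs, Pi.single_apply]
  have hB : ∀ x y, polarBilin (quadPlus 4 F) (bs F x + N (bs F x)) (bs F y + N (bs F y)) =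
      polarBilin (quadPlus 4 F) (bs F x) (bs F y) := by
    intro x y
    rw [← hNv, ← hNv]
    exact hui _ _
  have ec : c + c' = 0 := by
    have h3 := hB (.inr 2) (.inl 3)
    rw [hF2, hE3, be, be] at h3
    simp only [Pi.add_apply, Pi.smul_apply, smul_eq_mul, bsv] at h3
    simp at h3
    linear_combination h3
  have ed : d + d' = 0 := by
    have h3 := hB (.inr 2) (.inr 3)
    rw [hF2, hF3, be, be] at h3
    simp only [Pi.add_apply, Pi.smul_apply, smul_eq_mul, bsv] at h3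
    simp at h3
    linear_combination h3
  have eb : b + b' = 0 := by
    have h3 := hB (.inr 1) (.inl 2)
    rw [hF1, hE2, be, be] at h3
    simp only [Pi.add_apply, Pi.smul_apply, smul_eq_mul, bsv] at h3
    simp at h3
    linear_combination h3
  have ez : r2 + b' * c + z' = 0 := by
    have h3 := hB (.inr 1) (.inl 3)
    rw [hF1, hE3, be, be] at h3
    simp only [Pi.add_apply, Pi.smul_apply, smul_eq_mul, bsv] at h3
    simp at h3
    linear_combination h3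
  have ez' : r4 + b' * d + z'' = 0 := by
    have h3 := hB (.inr 1) (.inr 3)
    rw [hF1, hF3, be, be] at h3
    simp only [Pi.add_apply, Pi.smul_apply, smul_eq_mul, bsv] at h3
    simp at h3
    linear_combination h3
  have er : r6 + c' * d' = 0 := by
    have h3 := hu.1 (bs F (.inr 2))
    rw [hNv, hF2, qe, qe] at h3
    simp only [Pi.add_apply, Pi.smul_apply, smul_eq_mul, bsv] at h3
    simp at h3
    linear_combination h3
  -- squares
  have hN4 : ∀ v, (N ^ 4) v = N (N (N (N v))) := fun v => rfl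
  have hE2' : N (N (bs F (.inl 2))) = (b * a) • bs F (.inl 0) := by
    rw [hE2, map_add, map_smul, map_smul, hE1, hE0]
    module
  have hE3' : N (N (bs F (.inl 3))) = (c * b) • bs F (.inl 1) + (c * r1 + r2 * a) • bs F (.inl 0) := by
    rw [hE3, map_add, map_add, map_smul, map_smul, map_smul, hE2, hE1, hE0]
    module
  have hF3' : N (N (bs F (.inr 3))) = (d * b) • bs F (.inl 1) + (d * r1 + r4 * a) • bs F (.inl 0) := by
    rw [hF3, map_add, map_add, map_smul, map_smul, map_smul, hE2, hE1, hE0]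
    module
  have hF2' : ∃ η : F, N (N (bs F (.inr 2))) =
      (c' * r4 + d' * r2 + r6 * b) • bs F (.inl 1) + η • bs F (.inl 0) := by
    refine ⟨c' * r5 + d' * r3 + r6 * r1 + r7 * a, ?_⟩
    have h3 : (c' * d + d' * c) • bs F (.inl 2) = 0 := by
      have : c' * d + d' * c = 0 := by linear_combination c * ed + d * ec - c * d * h2
      rw [this, zero_smul]
    rw [hF2, map_add, map_add, map_add, map_add, map_smul, map_smul, map_smul, map_smul, map_smul, hF3, hE3, hE2, hE1,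
      hE0]
    have h4 : c' • (d • bs F (.inl 2) + r4 • bs F (.inl 1) + r5 • bs F (.inl 0)) +
        d' • (c • bs F (.inl 2) + r2 • bs F (.inl 1) + r3 • bs F (.inl 0)) +
        r6 • (b • bs F (.inl 1) + r1 • bs F (.inl 0)) + r7 • (a • bs F (.inl 0)) + r8 • (0 : Fin 4 ⊕ Fin 4 → F) =
        (c' * d + d' * c) • bs F (.inl 2) + ((c' * r4 + d' * r2 + r6 * b) • bs F (.inl 1) +
          (c' * r5 + d' * r3 + r6 * r1 + r7 * a) • bs F (.inl 0)) := by module
    rw [h4, h3, zero_add]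
  obtain ⟨η, hF2'⟩ := hF2'
  have hE1' : N (N (bs F (.inl 1))) = 0 := by rw [hE1, map_smul, hE0, smul_zero]
  have hE3'' : N (N (N (bs F (.inl 3)))) = (c * b * a) • bs F (.inl 0) := by
    rw [hE3', map_add, map_smul, map_smul, hE1, hE0]
    module
  have hF3'' : N (N (N (bs F (.inr 3)))) = (d * b * a) • bs F (.inl 0) := by
    rw [hF3', map_add, map_smul, map_smul, hE1, hE0]
    module
  have hF2'' : N (N (N (bs F (.inr 2)))) = ((c' * r4 + d' * r2 + r6 * b) * a) • bs F (.inl 0) := by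
    rw [hF2', map_add, map_smul, map_smul, hE1, hE0]
    module
  have hE2'' : N (N (N (bs F (.inl 2)))) = 0 := by rw [hE2', map_smul, hE0, smul_zero]
  refine ⟨fun j h0 h1 => ?_, ?_⟩
  · rw [hN4]
    rcases j with j | j <;> fin_cases j
    · show N (N (N (N (bs F (.inl 0))))) = 0
      rw [hE0, map_zero, map_zero, map_zero]
    · show N (N (N (N (bs F (.inl 1))))) = 0
      rw [hE1', map_zero, map_zero]
    · show N (N (N (N (bs F (.inl 2))))) = 0
      rw [hE2'', map_zero]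
    · show N (N (N (N (bs F (.inl 3))))) = 0
      rw [hE3'', map_smul, hE0, smul_zero]
    · exact absurd rfl h0
    · exact absurd rfl h1
    · show N (N (N (N (bs F (.inr 2))))) = 0
      rw [hF2'', map_smul, hE0, smul_zero]
    · show N (N (N (N (bs F (.inr 3))))) = 0
      rw [hF3'', map_smul, hE0, smul_zero]
  · rw [hN4, hF1]
    simp only [map_add, map_smul]
    rw [hF2'', hF3'', hE3'', hE2'', hE1', hE0]
    simp only [map_zero, smul_zero, add_zero]
    show _ = (a * b * b * c * d) • bs F (.inl 0)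
    have h3 : b' * ((c' * r4 + d' * r2 + r6 * b) * a) + z' * (d * b * a) + z'' * (c * b * a) = a * b * b * c * d := by
      have e1 : c' = c := by linear_combination ec - c * h2
      have e2 : d' = d := by linear_combination ed - d * h2
      have e3 : b' = b := by linear_combination eb - b * h2
      have e4 : z' = r2 + b * c := by
        rw [e3] at ez
        linear_combination ez - (r2 + b * c) * h2
      have e5 : z'' = r4 + b * d := by
        rw [e3] at ez'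
        linear_combination ez' - (r4 + b * d) * h2
      have e6 : r6 = c * d := by
        rw [e1, e2] at er
        linear_combination er - c * d * h2
      rw [e1, e2, e3, e4, e5, e6]
      linear_combination (a * b * c * r4 + a * b * d * r2 + a * b * b * c * d) * h2
    rw [← h3]
    module

theorem ext_bs {y : (Fin 4 ⊕ Fin 4 → F) ≃ₗ[F] (Fin 4 ⊕ Fin 4 → F)} (h : ∀ j, y (bs F j) = bs F j) : y = 1 := by
  apply LinearEquiv.ext
  intro v
  show y v = v
  conv_lhs => rw [expand v]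
  simp only [map_add, map_smul, h]
  exact (expand v).symm

/-- An isometry that fixes all basis vectors but one. -/
theorem eq_one_of {y : (Fin 4 ⊕ Fin 4 → F) ≃ₗ[F] (Fin 4 ⊕ Fin 4 → F)} (hy : y ∈ OQ (⇑(quadPlus 4 F)))
    (h : ∀ j, j ≠ .inr 0 → y (bs F j) = bs F j) : y = 1 := by
  have hyi : y ∈ Isom (polarBilin (quadPlus 4 F)) := OQ_le (qf_of _) hy
  have bsv : ∀ i j, bs F j i = if i = j then 1 else 0 := fun i j => by rw [bs, Pi.single_apply]
  set w := y (bs F (.inr 0)) with hw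
  have h1 : ∀ j, j ≠ .inr 0 → polarBilin (quadPlus 4 F) w (bs F j) =
      polarBilin (quadPlus 4 F) (bs F (.inr 0)) (bs F j) := by
    intro j hj
    have := hyi (bs F (.inr 0)) (bs F j)
    rwa [h j hj, ← hw] at this
  have h0 := h1 (.inl 0) (by decide)
  have h2 := h1 (.inl 1) (by decide)
  have h3 := h1 (.inl 2) (by decide)
  have h4 := h1 (.inl 3) (by decide)
  have h5 := h1 (.inr 1) (by decide)
  have h6 := h1 (.inr 2) (by decide)
  have h7 := h1 (.inr 3) (by decide)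
  simp only [be, bsv] at h0 h2 h3 h4 h5 h6 h7
  simp at h0 h2 h3 h4 h5 h6 h7
  have h8 := hy (bs F (.inr 0))
  rw [← hw, qe, qe, h0, h2, h3, h4, h5, h6, h7] at h8
  simp only [bsv] at h8
  simp at h8
  apply ext_bs
  intro j
  by_cases hj : j = .inr 0
  · rw [hj, ← hw, expand w, h0, h2, h3, h4, h5, h6, h7, h8]
    module
  · exact h j hj

/-- **The elements of order eight.** -/
theorem Low.order {u : (Fin 4 ⊕ Fin 4 → F) ≃ₗ[F] (Fin 4 ⊕ Fin 4 → F)} (hu : Low u) :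
    orderOf u = 8 ↔ cf (.inl 0) (.inl 1) u ≠ 0 ∧ cf (.inl 1) (.inl 2) u ≠ 0 ∧ cf (.inl 2) (.inl 3) u ≠ 0 ∧
      cf (.inl 2) (.inr 3) u ≠ 0 := by
  obtain ⟨h1, h2⟩ := hu.four
  have h3 : Nu u ^ 4 = Nu (u ^ 2 ^ 2) := Nu_pow u 2
  constructor
  · intro ho
    by_contra hno
    have h4 : cf (.inl 0) (.inl 1) u * cf (.inl 1) (.inl 2) u * cf (.inl 1) (.inl 2) u *
      cf (.inl 2) (.inl 3) u * cf (.inl 2) (.inr 3) u = 0 := by
      by_contra h5
      apply hno
      refine ⟨?_, ?_, ?_, ?_⟩ <;> · intro h6; apply h5; rw [h6]; ring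
    rw [h4, zero_smul] at h2
    have h5 : u ^ 2 ^ 2 = 1 := by
      apply eq_one_of ((OQ _).pow_mem hu.1 _)
      intro j hj
      have h6 : (Nu u ^ 4) (bs F j) = 0 := by
        by_cases hj1 : j = .inr 1
        · rw [hj1]; exact h2
        · exact h1 j hj hj1
      rw [h3] at h6
      exact sub_eq_zero.1 h6
    have h6 := orderOf_dvd_of_pow_eq_one h5
    rw [ho] at h6
    exact absurd (Nat.le_of_dvd (by norm_num) h6) (by norm_num)
  · rintro ⟨ha, hb, hc, hd⟩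
    have : Fact (Nat.Prime 2) := ⟨Nat.prime_two⟩
    refine orderOf_eq_prime_pow (p := 2) (n := 2) ?_ hu.pow_eight
    intro h4
    rw [h3, h4, Nu_one] at h2
    have h5 := congrFun h2.symm (.inl 0)
    rw [Pi.smul_apply, smul_eq_mul, bs_self, mul_one] at h5
    have h6 : cf (.inl 0) (.inl 1) u * cf (.inl 1) (.inl 2) u * cf (.inl 1) (.inl 2) u *
      cf (.inl 2) (.inl 3) u * cf (.inl 2) (.inr 3) u = 0 := h5
    have h7 := mul_ne_zero (mul_ne_zero (mul_ne_zero (mul_ne_zero ha hb) hb) hc) hd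
    exact h7 h6

end group

end Cfsg.Agent.H382.Eight
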