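import Mathlib
import Cfsg.Agent.H382.EightP
import Cfsg.Agent.H375.Out.Def

/-!
# The Sylow 2-subgroup of `Ω⁺₈(q)`, `q` even: the torus and the order (helper382)
-/

set_option autoImplicit false
set_option linter.unusedVariables false
set_option linter.unusedSectionVars false

namespace Cfsg.Agent.H382.Eight

open Module Cfsg.Agent.H375.Odd Cfsg.Agent.H375.Out Cfsg.Agent.H375 QuadraticMap Cfsg.Agent.LieClassical.OmegaReindex

variable {F : Type*} [Field F] [Fintype F] [CharP F 2]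

/-! ### The torus -/

/-- The torus. -/
noncomputable def dg (t : Fin 4 → Fˣ) : (Fin 4 ⊕ Fin 4 → F) ≃ₗ[F] (Fin 4 ⊕ Fin 4 → F) :=
  LinearEquiv.piCongrRight (fun j : Fin 4 ⊕ Fin 4 => LinearEquiv.smulOfUnit (Sum.elim t (fun i => (t i)⁻¹) j))

theorem dg_apply (t : Fin 4 → Fˣ) (v : Fin 4 ⊕ Fin 4 → F) (j : Fin 4 ⊕ Fin 4) :
    dg t v j = ((Sum.elim t (fun i => (t i)⁻¹) j : Fˣ) : F) * v j := rfl

theorem dg_mul (t t' : Fin 4 → Fˣ) : dg t * dg t' = dg (t * t') := by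
  apply LinearEquiv.ext
  intro v
  funext j
  show dg t (dg t' v) j = _
  rw [dg_apply, dg_apply, dg_apply]
  rcases j with j | j
  · simp [mul_assoc]
  · simp only [Sum.elim_inr, Pi.mul_apply, mul_inv_rev, Units.val_mul]
    ring

theorem dg_one : dg (1 : Fin 4 → Fˣ) = 1 := by
  apply LinearEquiv.ext
  intro v
  funext j
  rw [dg_apply]
  rcases j with j | j <;> simp

theorem dg_inv (t : Fin 4 → Fˣ) : (dg t)⁻¹ = dg t⁻¹ := by
  apply inv_eq_of_mul_eq_one_right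
  rw [dg_mul, mul_inv_cancel, dg_one]

theorem dg_mem (t : Fin 4 → Fˣ) : dg t ∈ OQ (⇑(quadPlus 4 F)) := by
  intro v
  rw [qe, qe]
  simp only [dg_apply, Sum.elim_inl, Sum.elim_inr]
  have h : ∀ (i : Fin 4) (x y : F), (t i : F) * x * (((t i)⁻¹ : Fˣ) * y) = x * y := by
    intro i x y
    have := (t i).mul_inv
    linear_combination x * y * this
  rw [h, h, h, h]

theorem dg_Fl (t : Fin 4 → Fˣ) {k : ℕ} {v : Fin 4 ⊕ Fin 4 → F} (hv : v ∈ Fl F k) : dg t v ∈ Fl F k := by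
  intro j hj
  rw [dg_apply, hv j hj, mul_zero]

theorem Nu_conj (g u : (Fin 4 ⊕ Fin 4 → F) ≃ₗ[F] (Fin 4 ⊕ Fin 4 → F)) (v : Fin 4 ⊕ Fin 4 → F) :
    Nu (g * u * g⁻¹) v = g (Nu u (g⁻¹ v)) := by
  rw [Nu_apply, Nu_apply, map_sub]
  congr 1
  show v = (g * g⁻¹) v
  rw [mul_inv_cancel]
  rfl

theorem Low.conj {u : (Fin 4 ⊕ Fin 4 → F) ≃ₗ[F] (Fin 4 ⊕ Fin 4 → F)} (hu : Low u) (t : Fin 4 → Fˣ) :
    Low (dg t * u * (dg t)⁻¹) := by
  refine ⟨mul_mem (mul_mem (dg_mem t) hu.1) (inv_mem (dg_mem t)), fun k v hv => ?_⟩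
  rw [Nu_conj, dg_inv]
  exact dg_Fl t (hu.2 k _ (dg_Fl _ hv))

theorem dg_bs (t : Fin 4 → Fˣ) (j : Fin 4 ⊕ Fin 4) :
    dg t (bs F j) = ((Sum.elim t (fun i => (t i)⁻¹) j : Fˣ) : F) • bs F j := by
  funext i
  rw [dg_apply, Pi.smul_apply, smul_eq_mul]
  by_cases h : i = j
  · rw [h]
  · rw [bs_ne h, mul_zero, mul_zero]

theorem cf_conj (u : (Fin 4 ⊕ Fin 4 → F) ≃ₗ[F] (Fin 4 ⊕ Fin 4 → F)) (t : Fin 4 → Fˣ) (i j : Fin 4 ⊕ Fin 4) :
    cf i j (dg t * u * (dg t)⁻¹) = ((Sum.elim t (fun i => (t i)⁻¹) i : Fˣ) : F) *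
      (((Sum.elim t (fun i => (t i)⁻¹) j : Fˣ)⁻¹ : Fˣ) : F) * cf i j u := by
  rw [cf, Nu_conj, dg_inv, dg_bs, map_smul, map_smul, Pi.smul_apply, smul_eq_mul, dg_apply, cf]
  rcases j with j | j
  · simp only [Sum.elim_inl, Pi.inv_apply]
    ring
  · simp only [Sum.elim_inr, Pi.inv_apply, inv_inv]
    ring

/-- **Transitivity.** -/
theorem exists_conj {u w : (Fin 4 ⊕ Fin 4 → F) ≃ₗ[F] (Fin 4 ⊕ Fin 4 → F)} (hu : Low u) (hw : Low w)
    (hu8 : orderOf u = 8) (hw8 : orderOf w = 8) : ∃ t : Fin 4 → Fˣ,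
      cf (.inl 0) (.inl 1) (dg t * u * (dg t)⁻¹) = cf (.inl 0) (.inl 1) w ∧
      cf (.inl 1) (.inl 2) (dg t * u * (dg t)⁻¹) = cf (.inl 1) (.inl 2) w ∧
      cf (.inl 2) (.inl 3) (dg t * u * (dg t)⁻¹) = cf (.inl 2) (.inl 3) w ∧
      cf (.inl 2) (.inr 3) (dg t * u * (dg t)⁻¹) = cf (.inl 2) (.inr 3) w := by
  obtain ⟨ha, hb, hc, hd⟩ := hu.order.1 hu8
  obtain ⟨ha', hb', hc', hd'⟩ := hw.order.1 hw8
  simp only [cf_conj]
  set a := cf (.inl 0) (.inl 1) u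
  set b := cf (.inl 1) (.inl 2) u
  set c := cf (.inl 2) (.inl 3) u
  set d := cf (.inl 2) (.inr 3) u
  set a' := cf (.inl 0) (.inl 1) w
  set b' := cf (.inl 1) (.inl 2) w
  set c' := cf (.inl 2) (.inl 3) w
  set d' := cf (.inl 2) (.inr 3) w
  obtain ⟨x, hx⟩ := FiniteField.isSquare_of_char_two (ringChar.eq_iff.2 (inferInstance : CharP F 2)) ((c' / c) * (d' / d))
  have hx0 : x ≠ 0 := by
    rintro rfl
    rw [mul_zero] at hx
    exact mul_ne_zero (div_ne_zero hc' hc) (div_ne_zero hd' hd) hx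
  have h3 : x * c / c' ≠ 0 := div_ne_zero (mul_ne_zero hx0 hc) hc'
  have h1 : x * b' / b ≠ 0 := div_ne_zero (mul_ne_zero hx0 hb') hb
  have h0 : x * b' / b * a' / a ≠ 0 := div_ne_zero (mul_ne_zero h1 ha') ha
  refine ⟨![Units.mk0 _ h0, Units.mk0 _ h1, Units.mk0 _ hx0, Units.mk0 _ h3], ?_, ?_, ?_, ?_⟩
  · simp
    field_simp
  · simp
    field_simp
  · simp
    field_simp
  · simp
    field_simp
    field_simp at hx
    linear_combination -hx

/-! ### Membership in `Ω` -/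

/-- The maximal singular subspace. -/
def U4 (F : Type*) [Field F] : Submodule F (Fin 4 ⊕ Fin 4 → F) where
  carrier := {v | ∀ i, v (.inr i) = 0}
  add_mem' := fun {v w} hv hw i => by
    show v _ + w _ = 0
    rw [hv i, hw i, add_zero]
  zero_mem' := fun i => rfl
  smul_mem' := fun c v hv i => by
    show c * v _ = 0
    rw [hv i, mul_zero]

theorem bs_U4 (i : Fin 4) : bs F (.inl i) ∈ U4 F := fun j => bs_ne (by simp)

theorem perp_U4 : perp (polarBilin (quadPlus 4 F)) (U4 F) = U4 F := by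
  ext v
  rw [mem_perp]
  constructor
  · intro h i
    have h1 := h _ (bs_U4 i)
    rw [be] at h1
    have bsv : ∀ i j, bs F j i = if i = j then 1 else 0 := fun i j => by rw [bs, Pi.single_apply]
    simp only [bsv] at h1
    fin_cases i <;> simpa using h1
  · intro h w hw
    rw [be, h 0, h 1, h 2, h 3, hw 0, hw 1, hw 2, hw 3]
    ring

theorem q_U4 {v : Fin 4 ⊕ Fin 4 → F} (hv : v ∈ U4 F) : quadPlus 4 F v = 0 := by
  rw [qe, hv 0, hv 1, hv 2, hv 3]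
  ring

theorem mem_om_of {u : (Fin 4 ⊕ Fin 4 → F) ≃ₗ[F] (Fin 4 ⊕ Fin 4 → F)} (hu : u ∈ OQ (⇑(quadPlus 4 F)))
    (h : ∀ v ∈ U4 F, u v ∈ U4 F) : u ∈ Om (quadPlus 4 F) :=
  (mem_Om quadPlus_nondegenerate (by simp) ⟨4, by simp⟩).2
    ⟨hu, even_fix (qf_of _) (alt_of quadPlus_nondegenerate) hu (fun w hw => q_U4 hw) perp_U4 h⟩

theorem dg_om (t : Fin 4 → Fˣ) : dg t ∈ Om (quadPlus 4 F) :=
  mem_om_of (dg_mem t) (fun v hv i => by rw [dg_apply, hv i, mul_zero])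

theorem Low.om {u : (Fin 4 ⊕ Fin 4 → F) ≃ₗ[F] (Fin 4 ⊕ Fin 4 → F)} (hu : Low u) : u ∈ Om (quadPlus 4 F) := by
  refine mem_om_of hu.1 fun v hv => ?_
  have h1 : v ∈ Fl F (3 + 1) := by
    intro j hj
    rcases j with j | j
    · exact absurd hj (by fin_cases j <;> decide)
    · exact hv j
  have h2 := hu.2 3 v h1
  intro i
  have h3 : Nu u v (.inr i) = 0 := h2 (.inr i) (by fin_cases i <;> decide)
  rw [Nu_apply, Pi.sub_apply, hv i, sub_zero] at h3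
  exact h3

/-! ### Siegel elements -/

/-- Siegel elements. -/
noncomputable def sge (i : Fin 4) (w : Fin 4 ⊕ Fin 4 → F) (hw : w (.inr i) = 0) :
    (Fin 4 ⊕ Fin 4 → F) ≃ₗ[F] (Fin 4 ⊕ Fin 4 → F) :=
  sgE (qf_of (quadPlus 4 F)) (alt_of quadPlus_nondegenerate) (e := bs F (.inl i)) ⟨w, by
    rw [LinearMap.mem_ker, be]
    have bsv : ∀ i j, bs F j i = if i = j then 1 else 0 := fun i j => by rw [bs, Pi.single_apply]
    simp only [bsv]
    fin_cases i <;> simpa using hw⟩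

theorem be_bs (v : Fin 4 ⊕ Fin 4 → F) (i : Fin 4) : polarBilin (quadPlus 4 F) v (bs F (.inl i)) = v (.inr i) := by
  rw [be]
  have bsv : ∀ i j, bs F j i = if i = j then 1 else 0 := fun i j => by rw [bs, Pi.single_apply]
  simp only [bsv]
  fin_cases i <;> simp

theorem Nu_sge (i : Fin 4) (w : Fin 4 ⊕ Fin 4 → F) (hw : w (.inr i) = 0) (v : Fin 4 ⊕ Fin 4 → F) (j : Fin 4 ⊕ Fin 4) :
    Nu (sge i w hw) v j = v (.inr i) * w j + polarBilin (quadPlus 4 F) v w * bs F (.inl i) j +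
      quadPlus 4 F w * v (.inr i) * bs F (.inl i) j := by
  rw [Nu_apply, sge, sgE_apply, sg_apply, be_bs, Pi.sub_apply, Pi.add_apply, Pi.add_apply, Pi.add_apply, Pi.smul_apply,
    Pi.smul_apply, Pi.smul_apply, smul_eq_mul, smul_eq_mul, smul_eq_mul]
  ring

theorem sge_low (i : Fin 4) (hi : i.1 ≤ 2) (w : Fin 4 ⊕ Fin 4 → F) (hw : w (.inr i) = 0) (h1 : w ∈ Fl F (6 - i.1)) :
    Low (sge i w hw) := by
  refine ⟨sgE_mem _ _ (q_U4 (bs_U4 i)) _, fun k v hv j hj => ?_⟩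
  rw [Nu_sge]
  have hwi : wt (.inr i) = 7 - i.1 := rfl
  have hwi' : wt (.inl i) = i.1 + 1 := rfl
  rcases Nat.lt_or_ge (k + 1) (7 - i.1) with hk | hk
  · rw [hv (.inr i) (by rw [hwi]; exact hk), zero_mul, mul_zero, zero_mul, zero_add, add_zero]
    by_cases hji : j = .inl i
    · have h2 : ∀ m : Fin 4, v (.inl m) * w (.inr m) = 0 := by
        intro m
        have e1 : wt (.inl m) = m.1 + 1 := rfl
        have e2 : wt (.inr m) = 7 - m.1 := rfl
        rw [hji, hwi'] at hj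
        rcases Nat.lt_or_ge (k + 1) (wt (.inl m)) with h3 | h3
        · rw [hv _ h3, zero_mul]
        · rw [h1 (.inr m) (by have := m.2; omega), mul_zero]
      have h3 : ∀ m : Fin 4, w (.inl m) * v (.inr m) = 0 := by
        intro m
        have e1 : wt (.inl m) = m.1 + 1 := rfl
        have e2 : wt (.inr m) = 7 - m.1 := rfl
        rw [hji, hwi'] at hj
        rcases Nat.lt_or_ge (k + 1) (wt (.inr m)) with h3 | h3
        · rw [hv _ h3, mul_zero]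
        · rw [h1 (.inl m) (by have := m.2; omega), zero_mul]
      rw [be, h2, h2, h2, h2, h3, h3, h3, h3]
      simp
    · rw [bs_ne hji, mul_zero]
  · rw [h1 j (by omega), bs_ne (i := j) (j := .inl i) (by rintro rfl; rw [hwi'] at hj; omega)]
    ring

end Cfsg.Agent.H382.Eight
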