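import Mathlib
import Cfsg.Agent.H382.EightQ
import Cfsg.Agent.S0293

/-!
# Elements of order `8 s` in extensions of `PΩ⁺₈(q)`, `q` even (helper382)
-/

set_option autoImplicit false
set_option linter.unusedVariables false
set_option linter.unusedSectionVars false

namespace Cfsg.Agent.H382.Eight

open Module Cfsg.Agent.H375.Odd Cfsg.Agent.H375.Out Cfsg.Agent.H375 QuadraticMap Cfsg.Agent.LieClassical.OmegaReindex

variable {F : Type*} [Field F] [Fintype F] [CharP F 2]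

/-! ### The number of elements -/

/-- The vectors. -/
def w0 (x : Fin 6 → F) : Fin 4 ⊕ Fin 4 → F := Sum.elim ![0, x 0, x 1, x 2] ![0, x 5, x 4, x 3]

def w1 (x : Fin 4 → F) : Fin 4 ⊕ Fin 4 → F := Sum.elim ![0, 0, x 0, x 1] ![0, 0, x 3, x 2]

def w2 (x : Fin 2 → F) : Fin 4 ⊕ Fin 4 → F := Sum.elim ![0, 0, 0, x 0] ![0, 0, 0, x 1]

theorem w0_mem (x : Fin 6 → F) : w0 x ∈ Fl F 6 := by
  intro j hj
  rcases j with j | j <;> fin_cases j <;> first | rfl | exact absurd hj (by decide)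

theorem w1_mem (x : Fin 4 → F) : w1 x ∈ Fl F 5 := by
  intro j hj
  rcases j with j | j <;> fin_cases j <;> first | rfl | exact absurd hj (by decide)

theorem w2_mem (x : Fin 2 → F) : w2 x ∈ Fl F 4 := by
  intro j hj
  rcases j with j | j <;> fin_cases j <;> first | rfl | exact absurd hj (by decide)

noncomputable def S0 (x : Fin 6 → F) : (Fin 4 ⊕ Fin 4 → F) ≃ₗ[F] (Fin 4 ⊕ Fin 4 → F) := sge 0 (w0 x) rfl

noncomputable def S1 (x : Fin 4 → F) : (Fin 4 ⊕ Fin 4 → F) ≃ₗ[F] (Fin 4 ⊕ Fin 4 → F) := sge 1 (w1 x) rfl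

noncomputable def S2 (x : Fin 2 → F) : (Fin 4 ⊕ Fin 4 → F) ≃ₗ[F] (Fin 4 ⊕ Fin 4 → F) := sge 2 (w2 x) rfl

theorem S0_low (x : Fin 6 → F) : Low (S0 x) := sge_low 0 (by decide) _ _ (w0_mem x)

theorem S1_low (x : Fin 4 → F) : Low (S1 x) := sge_low 1 (by decide) _ _ (w1_mem x)

theorem S2_low (x : Fin 2 → F) : Low (S2 x) := sge_low 2 (by decide) _ _ (w2_mem x)

theorem be_bs' (v : Fin 4 ⊕ Fin 4 → F) (i : Fin 4) : polarBilin (quadPlus 4 F) (bs F (.inr i)) v = v (.inl i) := by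
  rw [be]
  have bsv : ∀ i j, bs F j i = if i = j then 1 else 0 := fun i j => by rw [bs, Pi.single_apply]
  simp only [bsv]
  fin_cases i <;> simp

theorem be_bs'' (v : Fin 4 ⊕ Fin 4 → F) (i : Fin 4) : polarBilin (quadPlus 4 F) (bs F (.inl i)) v = v (.inr i) := by
  rw [be]
  have bsv : ∀ i j, bs F j i = if i = j then 1 else 0 := fun i j => by rw [bs, Pi.single_apply]
  simp only [bsv]
  fin_cases i <;> simp

/-- Siegel elements with index `i` fix `f_m` for `m ≠ i` if `w` has no component `e_m`. -/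
theorem sge_fix (i m : Fin 4) (him : m ≠ i) (w : Fin 4 ⊕ Fin 4 → F) (hw : w (.inr i) = 0) (hwm : w (.inl m) = 0) :
    sge i w hw (bs F (.inr m)) = bs F (.inr m) := by
  have h : Nu (sge i w hw) (bs F (.inr m)) = 0 := by
    funext j
    rw [Nu_sge, be_bs', hwm, bs_ne (i := .inr i) (j := .inr m) (by simpa using him.symm)]
    simp
  exact sub_eq_zero.1 h

/-- The coefficients. -/
theorem sge_coeff (i : Fin 4) (w : Fin 4 ⊕ Fin 4 → F) (hw : w (.inr i) = 0) (hwi : w (.inl i) = 0)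
    (j : Fin 4 ⊕ Fin 4) (hj : j ≠ .inl i) : Nu (sge i w hw) (bs F (.inr i)) j = w j := by
  rw [Nu_sge, be_bs', hwi, bs_self, bs_ne hj]
  ring

noncomputable def phi (x : (Fin 6 → F) × (Fin 4 → F) × (Fin 2 → F)) : (Fin 4 ⊕ Fin 4 → F) ≃ₗ[F] (Fin 4 ⊕ Fin 4 → F) :=
  S0 x.1 * (S1 x.2.1 * S2 x.2.2)

theorem phi_low (x : (Fin 6 → F) × (Fin 4 → F) × (Fin 2 → F)) : Low (phi x) :=
  (S0_low _).mul ((S1_low _).mul (S2_low _))

theorem phi_inj : Function.Injective (phi (F := F)) := by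
  rintro ⟨x, y, z⟩ ⟨x', y', z'⟩ h
  have h' : S0 x * (S1 y * S2 z) = S0 x' * (S1 y' * S2 z') := h
  have e0 : ∀ (x : Fin 6 → F) (y : Fin 4 → F) (z : Fin 2 → F),
      (S0 x * (S1 y * S2 z)) (bs F (.inr 0)) = S0 x (bs F (.inr 0)) := by
    intro x y z
    show S0 x (S1 y (S2 z _)) = _
    have h1 : S2 z (bs F (.inr 0)) = bs F (.inr 0) := sge_fix 2 0 (by decide) _ _ rfl
    have h2 : S1 y (bs F (.inr 0)) = bs F (.inr 0) := sge_fix 1 0 (by decide) _ _ rfl
    rw [h1, h2]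
  have c0 : ∀ j, j ≠ Sum.inl 0 → w0 x j = w0 x' j := by
    intro j hj
    have h1 := congrArg (fun g : (Fin 4 ⊕ Fin 4 → F) ≃ₗ[F] (Fin 4 ⊕ Fin 4 → F) => g (bs F (.inr 0)) j - bs F (.inr 0) j) h'
    simp only [e0] at h1
    have h2 : ∀ x : Fin 6 → F, S0 x (bs F (.inr 0)) j - bs F (.inr 0) j = w0 x j := fun x => sge_coeff 0 (w0 x) rfl rfl j hj
    rw [h2, h2] at h1
    exact h1
  have hx : x = x' := by
    funext i
    fin_cases i
    · exact c0 (.inl 1) (by decide)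
    · exact c0 (.inl 2) (by decide)
    · exact c0 (.inl 3) (by decide)
    · exact c0 (.inr 3) (by decide)
    · exact c0 (.inr 2) (by decide)
    · exact c0 (.inr 1) (by decide)
  subst hx
  have h' := mul_left_cancel h'
  have e1 : ∀ (y : Fin 4 → F) (z : Fin 2 → F), (S1 y * S2 z) (bs F (.inr 1)) = S1 y (bs F (.inr 1)) := by
    intro y z
    show S1 y (S2 z _) = _
    have h1 : S2 z (bs F (.inr 1)) = bs F (.inr 1) := sge_fix 2 1 (by decide) _ _ rfl
    rw [h1]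
  have c1 : ∀ j, j ≠ Sum.inl 1 → w1 y j = w1 y' j := by
    intro j hj
    have h1 := congrArg (fun g : (Fin 4 ⊕ Fin 4 → F) ≃ₗ[F] (Fin 4 ⊕ Fin 4 → F) => g (bs F (.inr 1)) j - bs F (.inr 1) j) h'
    simp only [e1] at h1
    have h2 : ∀ x : Fin 4 → F, S1 x (bs F (.inr 1)) j - bs F (.inr 1) j = w1 x j := fun x => sge_coeff 1 (w1 x) rfl rfl j hj
    rw [h2, h2] at h1
    exact h1
  have hy : y = y' := by
    funext i
    fin_cases i
    · exact c1 (.inl 2) (by decide)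
    · exact c1 (.inl 3) (by decide)
    · exact c1 (.inr 3) (by decide)
    · exact c1 (.inr 2) (by decide)
  subst hy
  have h' := mul_left_cancel h'
  have c2 : ∀ j, j ≠ Sum.inl 2 → w2 z j = w2 z' j := by
    intro j hj
    have h1 := congrArg (fun g : (Fin 4 ⊕ Fin 4 → F) ≃ₗ[F] (Fin 4 ⊕ Fin 4 → F) => g (bs F (.inr 2)) j - bs F (.inr 2) j) h'
    have h2 : ∀ x : Fin 2 → F, S2 x (bs F (.inr 2)) j - bs F (.inr 2) j = w2 x j := fun x => sge_coeff 2 (w2 x) rfl rfl j hj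
    simp only [h2] at h1
    exact h1
  have hz : z = z' := by
    funext i
    fin_cases i
    · exact c2 (.inl 3) (by decide)
    · exact c2 (.inr 3) (by decide)
  subst hz
  rfl

theorem card_le : Fintype.card F ^ 12 ≤ Nat.card (Ph F) := by
  have h1 : Function.Injective (fun x => (⟨phi x, phi_low x⟩ : Ph F)) := fun x y h => phi_inj (congrArg Subtype.val h)
  have h2 := Nat.card_le_card_of_injective _ h1
  rw [Nat.card_prod, Nat.card_prod, Nat.card_fun, Nat.card_fun, Nat.card_fun, Nat.card_eq_fintype_card (α := F),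
    Nat.card_eq_fintype_card (α := Fin 6), Nat.card_eq_fintype_card (α := Fin 4), Nat.card_eq_fintype_card (α := Fin 2),
    Fintype.card_fin, Fintype.card_fin, Fintype.card_fin, ← pow_add, ← pow_add] at h2
  exact h2

/-! ### The Sylow 2-subgroup -/

theorem Ph_le : Ph F ≤ Om (quadPlus 4 F) := fun u hu => Low.om hu

theorem data : H390.Lift.Data (quadPlus 4 F) :=
  data_two quadPlus_nondegenerate (by simp) (quadPlus_isotropic (by norm_num))

/-- `PΩ⁺₈(q) = Ω⁺₈(q)`. -/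
noncomputable def omE : Cfsg.POmega F (Cfsg.quadFormPlus 4 F) ≃* Om (quadPlus 4 F) :=
  (MulEquiv.cast (M := fun Q : (Fin 4 ⊕ Fin 4 → F) → F => Cfsg.POmega F Q) (coe_quadPlus 4 F).symm).trans
    ((pomE data).trans (Subgroup.equivMapOfInjective _ (isoL (quadPlus 4 F)) isoL_injective))

theorem even_card : Even (Fintype.card F) := by
  have := even_pow_card (F := F) (m := 1) one_pos
  rwa [pow_one] at this

theorem card_om : ∃ N, Odd N ∧ Nat.card (Om (quadPlus 4 F)) = Fintype.card F ^ 12 * N := by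
  have h1 := Cfsg.Agent.S0293.result (F := F) rfl 4 (by norm_num)
  have hq : 1 < Fintype.card F := Fintype.one_lt_card
  have hodd : ∀ m, 0 < m → Odd (Fintype.card F ^ m - 1) := by
    intro m hm
    exact Nat.Even.sub_odd (Nat.one_le_pow _ _ Fintype.card_pos) (even_pow_card hm) odd_one
  have hg : Nat.gcd 4 (Fintype.card F ^ 4 - 1) = 1 := by
    have h2 : Nat.Coprime 2 (Fintype.card F ^ 4 - 1) := Nat.coprime_two_left.2 (hodd 4 (by norm_num))
    exact Nat.Coprime.pow_left 2 h2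
  rw [hg, one_mul, Nat.card_congr (omE (F := F)).toEquiv] at h1
  refine ⟨(Fintype.card F ^ 4 - 1) * ∏ i ∈ Finset.range (4 - 1), (Fintype.card F ^ (2 * (i + 1)) - 1), ?_, ?_⟩
  · apply (hodd 4 (by norm_num)).mul
    apply Finset.prod_induction _ Odd (fun a b ha hb => ha.mul hb) odd_one
    intro i _
    exact hodd _ (by omega)
  · rw [h1, mul_assoc]

theorem pgroup : IsPGroup 2 (Ph F) := fun g => ⟨3, Subtype.ext (Low.pow_eight g.2)⟩

/-- The Sylow 2-subgroup. -/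
theorem exists_sylow : ∃ P : Sylow 2 (Om (quadPlus 4 F)), (P : Subgroup (Om (quadPlus 4 F))) = (Ph F).subgroupOf _ := by
  have : Fact (Nat.Prime 2) := ⟨Nat.prime_two⟩
  have hcard : Nat.card ((Ph F).subgroupOf (Om (quadPlus 4 F))) = Nat.card (Ph F) :=
    Nat.card_congr (Subgroup.subgroupOfEquivOfLe Ph_le).toEquiv
  obtain ⟨N, hN, hcN⟩ := card_om (F := F)
  obtain ⟨j, hj⟩ := IsPGroup.iff_card.1 (pgroup (F := F))
  obtain ⟨f, hf0, hf⟩ := exists_card (F := F)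
  have h1 := card_le (F := F)
  have h2 := Subgroup.index_mul_card ((Ph F).subgroupOf (Om (quadPlus 4 F)))
  rw [hcard, hcN, hj, hf, ← pow_mul] at h2
  rw [hj, hf, ← pow_mul] at h1
  have h3 : f * 12 ≤ j := (Nat.pow_le_pow_iff_right (by norm_num)).1 h1
  have h4 : 2 ^ j ∣ 2 ^ (f * 12) * N := ⟨_, by rw [← h2, mul_comm]⟩
  have h5 : 2 ^ j ∣ 2 ^ (f * 12) :=
    Nat.Coprime.dvd_of_dvd_mul_right (Nat.Coprime.pow_left _ (Nat.coprime_two_left.2 hN)) h4
  have h6 : j ≤ f * 12 := (Nat.pow_dvd_pow_iff_le_right (by norm_num)).1 h5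
  have h7 : j = f * 12 := by omega
  rw [h7, mul_comm] at h2
  have h8 := Nat.eq_of_mul_eq_mul_left (pow_pos two_pos _) h2
  refine ⟨IsPGroup.toSylow (P := (Ph F).subgroupOf (Om (quadPlus 4 F))) ?_ ?_, rfl⟩
  · exact (pgroup (F := F)).of_equiv (Subgroup.subgroupOfEquivOfLe Ph_le).symm
  · rw [h8]
    exact fun h => (Nat.not_even_iff_odd.2 hN) (even_iff_two_dvd.2 h)

/-- **`Ω⁺₈(q)` satisfies the hypothesis of the extension lemma.** -/
theorem good : Good (Om (quadPlus 4 F)) := by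
  classical
  obtain ⟨P, hP⟩ := exists_sylow (F := F)
  have hmem : ∀ x : Om (quadPlus 4 F), x ∈ P ↔ Low (x : (Fin 4 ⊕ Fin 4 → F) ≃ₗ[F] (Fin 4 ⊕ Fin 4 → F)) := by
    intro x
    show x ∈ (P : Subgroup (Om (quadPlus 4 F))) ↔ _
    rw [hP]
    rfl
  have ho : ∀ x : Om (quadPlus 4 F), orderOf (x : (Fin 4 ⊕ Fin 4 → F) ≃ₗ[F] (Fin 4 ⊕ Fin 4 → F)) = orderOf x :=
    fun x => orderOf_injective (Om (quadPlus 4 F)).subtype Subtype.val_injective x
  have w01 : wt (.inl 0) + 1 = wt (.inl 1) := rfl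
  have w12 : wt (.inl 1) + 1 = wt (.inl 2) := rfl
  have w23 : wt (.inl 2) + 1 = wt (.inl 3) := rfl
  have w23' : wt (.inl 2) + 1 = wt (.inr 3) := rfl
  let Z : ((Fin 4 ⊕ Fin 4 → F) ≃ₗ[F] (Fin 4 ⊕ Fin 4 → F)) → Prop := fun u => Low u ∧ cf (.inl 0) (.inl 1) u = 0 ∧
    cf (.inl 1) (.inl 2) u = 0 ∧ cf (.inl 2) (.inl 3) u = 0 ∧ cf (.inl 2) (.inr 3) u = 0
  let K : Subgroup (Om (quadPlus 4 F)) :=
    { carrier := {x | Z x}
      mul_mem' := by
        rintro x y ⟨hx, x1, x2, x3, x4⟩ ⟨hy, y1, y2, y3, y4⟩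
        refine ⟨hx.mul hy, ?_, ?_, ?_, ?_⟩
        · show cf _ _ (x.1 * y.1) = 0
          rw [cf_mul hx hy w01, x1, y1, add_zero]
        · show cf _ _ (x.1 * y.1) = 0
          rw [cf_mul hx hy w12, x2, y2, add_zero]
        · show cf _ _ (x.1 * y.1) = 0
          rw [cf_mul hx hy w23, x3, y3, add_zero]
        · show cf _ _ (x.1 * y.1) = 0
          rw [cf_mul hx hy w23', x4, y4, add_zero]
      one_mem' := ⟨Low.one, cf_one _ _, cf_one _ _, cf_one _ _, cf_one _ _⟩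
      inv_mem' := by
        rintro x ⟨hx, x1, x2, x3, x4⟩
        refine ⟨hx.inv, ?_, ?_, ?_, ?_⟩
        · show cf _ _ (x.1)⁻¹ = 0
          rw [cf_inv hx w01, x1]
        · show cf _ _ (x.1)⁻¹ = 0
          rw [cf_inv hx w12, x2]
        · show cf _ _ (x.1)⁻¹ = 0
          rw [cf_inv hx w23, x3]
        · show cf _ _ (x.1)⁻¹ = 0
          rw [cf_inv hx w23', x4] }
  refine ⟨P, K, fun x hx => (hmem x).2 hx.1, ?_, ?_, ?_⟩
  · -- an element of order eight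
    set u := phi (F := F) (![0, 0, 0, 0, 0, 1], ![0, 0, 0, 1], ![1, 1]) with hu
    have hlow : Low u := phi_low _
    refine ⟨⟨u, hlow.om⟩, (hmem _).2 hlow, ?_⟩
    rw [← ho]
    show orderOf u = 8
    rw [hlow.order]
    have hc : ∀ i j, wt i + 1 = wt j → cf i j u = cf i j (S0 (F := F) ![0, 0, 0, 0, 0, 1]) +
        (cf i j (S1 (F := F) ![0, 0, 0, 1]) + cf i j (S2 (F := F) ![1, 1])) := by
      intro i j hij
      rw [hu, phi, cf_mul (S0_low _) ((S1_low _).mul (S2_low _)) hij, cf_mul (S1_low _) (S2_low _) hij]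
    have bsv : ∀ i j, bs F j i = if i = j then 1 else 0 := fun i j => by rw [bs, Pi.single_apply]
    rw [hc _ _ w01, hc _ _ w12, hc _ _ w23, hc _ _ w23']
    refine ⟨?_, ?_, ?_, ?_⟩ <;>
      · simp only [cf, S0, S1, S2, Nu_sge, be_bs', be_bs'', bsv, w0, w1, w2]
        simp
  · intro r hr hr8 k hk
    obtain ⟨hk1, k1, k2, k3, k4⟩ := hk
    rw [hmem] at hr
    rw [← ho] at hr8 ⊢
    obtain ⟨h1, h2, h3, h4⟩ := hr.order.1 hr8
    show orderOf (r.1 * k.1) = 8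
    rw [(hr.mul hk1).order, cf_mul hr hk1 w01, cf_mul hr hk1 w12, cf_mul hr hk1 w23, cf_mul hr hk1 w23', k1, k2, k3, k4,
      add_zero, add_zero, add_zero, add_zero]
    exact ⟨h1, h2, h3, h4⟩
  · intro r hr hr8 r' hr' hr8'
    rw [hmem] at hr hr'
    rw [← ho] at hr8 hr8'
    obtain ⟨t, h1, h2, h3, h4⟩ := exists_conj hr hr' hr8 hr8'
    refine ⟨⟨dg t, dg_om t⟩, ?_, ?_⟩
    · rw [Subgroup.mem_normalizer_iff]
      intro x
      show x ∈ P ↔ _ ∈ P
      rw [hmem, hmem]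
      constructor
      · intro hx
        exact hx.conj t
      · intro hx
        have h5 := hx.conj t⁻¹
        have h6 : dg t⁻¹ * ((⟨dg t, dg_om t⟩ * x * (⟨dg t, dg_om t⟩ : Om (quadPlus 4 F))⁻¹ : Om (quadPlus 4 F)) :
            (Fin 4 ⊕ Fin 4 → F) ≃ₗ[F] (Fin 4 ⊕ Fin 4 → F)) * (dg t⁻¹)⁻¹ = x := by
          show dg t⁻¹ * (dg t * x * (dg t)⁻¹) * (dg t⁻¹)⁻¹ = x
          rw [← dg_inv]
          group
        rwa [h6] at h5
    · have h5 := hr.conj t
      have h6 : Low ((r'.1)⁻¹ * (dg t * r.1 * (dg t)⁻¹)) := hr'.inv.mul h5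
      refine ⟨h6, ?_, ?_, ?_, ?_⟩
      · show cf _ _ ((r'.1)⁻¹ * (dg t * r.1 * (dg t)⁻¹)) = 0
        rw [cf_mul hr'.inv h5 w01, h1, cf_inv hr' w01]
        exact CharTwo.add_self_eq_zero _
      · show cf _ _ ((r'.1)⁻¹ * (dg t * r.1 * (dg t)⁻¹)) = 0
        rw [cf_mul hr'.inv h5 w12, h2, cf_inv hr' w12]
        exact CharTwo.add_self_eq_zero _
      · show cf _ _ ((r'.1)⁻¹ * (dg t * r.1 * (dg t)⁻¹)) = 0
        rw [cf_mul hr'.inv h5 w23, h3, cf_inv hr' w23]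
        exact CharTwo.add_self_eq_zero _
      · show cf _ _ ((r'.1)⁻¹ * (dg t * r.1 * (dg t)⁻¹)) = 0
        rw [cf_mul hr'.inv h5 w23', h4, cf_inv hr' w23']
        exact CharTwo.add_self_eq_zero _

/-- **Main theorem.** -/
theorem exists_eight {F : Type*} [Field F] [Fintype F] [CharP F 2] {X : Type*} [Group X] [Finite X] (S : Subgroup X)
    [S.Normal] (e : ↥S ≃* Cfsg.POmega F (Cfsg.quadFormPlus 4 F)) {s : ℕ} (hs : s.Prime) (hs2 : s ≠ 2)
    (hsX : s ∣ S.index) : ∃ y : X, orderOf y = 8 * s :=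
  (good.of_equiv (e.trans omE)).exists_orderOf hs hs2 hsX

end Cfsg.Agent.H382.Eight
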